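import Mathlib
import Cfsg.Agent.Lib.ZStar.FactsProof
import Cfsg.Agent.Lib.ZStar.Klein
import Cfsg.Agent.Lib.ZStar.Q8Block
import Cfsg.Agent.Lib.ZStar.KleinFusion

/-!
# Averages over the section of an involution, Klein four Sylow subgroups
-/

set_option autoImplicit false
set_option linter.style.haveILetI false

namespace Cfsg.Lib.ZStar

universe u

variable {G : Type u} [Group G] [Fintype G]

open scoped Classical in
/-- Characters outside the principal block sum to zero over the section of an involution. -/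
theorem klein_section {M : Ideal Cfsg.AlgInt} (hM : Cfsg.IsPModular 2 M) (P : Sylow 2 G)
    (hK : IsKleinFour (P : Subgroup G))
    (hone : ∀ s t : G, orderOf s = 2 → orderOf t = 2 → IsConj s t) {J : G} (hJ2 : orderOf J = 2)
    (hJ : J ∈ (P : Subgroup G)) (χ₀ : Cfsg.IrrCharacter G) (hχ₀ : χ₀ ∉ Cfsg.principalBlock M G) :
    ∑ y ∈ Finset.univ.filter (fun y : G => y * J = J * y ∧ Odd (orderOf y)), (χ₀ : G → ℂ) (J * y) = 0 := by
  classical
  haveI : Fact (Nat.Prime 2) := ⟨Nat.prime_two⟩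
  haveI := hM.2.1.isPrime
  have hF := Cfsg.Lib.ZStar.blockFacts G hM
  set B := Finset.univ.filter (fun χ : Cfsg.IrrCharacter G => χ ∈ Cfsg.principalBlock M G) with hBdef
  set T : Cfsg.IrrCharacter G := Cfsg.Lib.ZStar.triv G with hTdef
  have h0 : ∀ χ : Cfsg.IrrCharacter G, (χ : G → ℂ) ≠ (fun _ => 1) → T ≠ χ :=
    fun χ h e => h (by rw [← e]; rfl)
  -- integral values
  have hJ1 : J ≠ 1 := fun e => by simp [e] at hJ2
  choose b hb using fun χ : Cfsg.IrrCharacter G => Cfsg.Lib.ZStar.exists_int_involution χ hJ2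
  have hbJ : ∀ χ : Cfsg.IrrCharacter G, (χ : G → ℂ) J = b χ := fun χ => (hb χ).1
  have hsec : ∀ χ : Cfsg.IrrCharacter G, χ ∈ Cfsg.principalBlock M G →
      ∀ y : G, y * J = J * y → Odd (orderOf y) → (χ : G → ℂ) (J * y) = b χ := by
    intro χ hχ y hy hyo
    have hc : Commute J y := hy.symm
    have hgo : ¬ Odd (orderOf (J * y)) := by
      rw [hc.orderOf_mul_eq_mul_orderOf_of_coprime (by rw [hJ2]; exact Nat.coprime_two_left.mpr hyo), hJ2]
      exact Nat.not_odd_iff_even.mpr (even_two_mul _)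
    obtain ⟨s, hs, e⟩ := Cfsg.Lib.ZStar.klein_value hF P hK hχ hgo
    rw [e, Cfsg.Lib.Characters.isClassFunction_iff_isConj.mp χ.2.isClassFunction s J (hone s J hs hJ2), hbJ]
  obtain ⟨ζ₂, ζ₃, ζ₄, ε, hε, hn2, hn3, h23, h24, h34, hB0, hval, -, -, -, -⟩ :=
    Cfsg.Lib.ZStar.klein_principal hM hF P hK hone
  have hn4 : (ζ₄ : G → ℂ) ≠ fun _ => 1 := fun e => by
    have h1 := (hval J hJ2).2.2
    rw [e] at h1
    norm_num at h1
  have hB4 : B = {T, ζ₂, ζ₃, ζ₄} := by
    ext χ
    simp only [hBdef, Finset.mem_filter, Finset.mem_univ, true_and, hB0, Set.mem_ofPred_eq,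
      Finset.mem_insert, Finset.mem_singleton]
    exact or_congr ⟨fun h => Subtype.ext h, fun h => by rw [h]; rfl⟩ Iff.rfl
  have hsum : ∀ f : Cfsg.IrrCharacter G → ℂ, ∑ χ ∈ B, f χ = f T + f ζ₂ + f ζ₃ + f ζ₄ := by
    intro f
    rw [hB4, Finset.sum_insert (by simp [h0 _ hn2, h0 _ hn3, h0 _ hn4]),
      Finset.sum_insert (by simp [h23, h24]), Finset.sum_pair h34]
    ring
  have hbsq : ∀ χ ∈ B, (b χ : ℂ) * b χ = 1 := by
    intro χ hχ
    rw [hB4] at hχ
    simp only [Finset.mem_insert, Finset.mem_singleton] at hχ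
    rw [← hbJ χ]
    rcases hχ with rfl | rfl | rfl | rfl
    · rw [hTdef, Cfsg.Lib.ZStar.triv_apply]; simp
    · rw [(hval J hJ2).1]; simp
    · rw [(hval J hJ2).2.1]; rcases hε with e | e <;> rw [e] <;> simp
    · rw [(hval J hJ2).2.2]; simp
  -- the odd elements of the centraliser
  set Y := Finset.univ.filter (fun y : G => y * J = J * y ∧ Odd (orderOf y)) with hY
  set C := Subgroup.centralizer ({J} : Set G)
  obtain ⟨hidx, hodd⟩ := Cfsg.Lib.ZStar.klein_centralizer P hK hJ2 hJ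
  have hYcard : 4 * Y.card = Nat.card C := by
    have h1 : Nat.card (Cfsg.pPrimeCore 2 C) = Y.card := by
      rw [← Nat.card_eq_finsetCard]
      refine Nat.card_congr
        { toFun := fun c => ⟨((c : C) : G), ?_⟩
          invFun := fun y => ⟨⟨y, Subgroup.mem_centralizer_singleton_iff.mpr ((Finset.mem_filter.mp y.2).2.1)⟩,
            hodd _ (by rw [Subgroup.orderOf_mk]; exact (Finset.mem_filter.mp y.2).2.2)⟩
          left_inv := fun c => rfl
          right_inv := fun y => rfl }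
      refine Finset.mem_filter.mpr ⟨Finset.mem_univ _, Subgroup.mem_centralizer_singleton_iff.mp (c : C).2, ?_⟩
      rw [Subgroup.orderOf_coe]
      exact Odd.of_dvd_nat (Nat.coprime_two_right.mp (Cfsg.Lib.Solv.coprime_pPrimeCore 2))
        (Subgroup.orderOf_dvd_natCard _ c.2)
    rw [← Subgroup.card_mul_index (Cfsg.pPrimeCore 2 C), hidx, h1, mul_comm]
  set W : Cfsg.IrrCharacter G → ℂ := fun χ => ∑ y ∈ Y, (χ : G → ℂ) (J * y)
  have hWB : ∀ χ ∈ B, W χ = (Y.card : ℂ) * b χ := by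
    intro χ hχ
    have hc : ∀ y ∈ Y, (χ : G → ℂ) (J * y) = b χ := fun y hy => by
      obtain ⟨h1, h2⟩ := (Finset.mem_filter.mp hy).2
      exact hsec χ (Finset.mem_filter.mp hχ).2 y h1 h2
    simp only [W, Finset.sum_congr rfl hc, Finset.sum_const, nsmul_eq_mul]
  -- column orthogonality kills the other characters
  have htot : ∑ χ : Cfsg.IrrCharacter G, W χ * (starRingEnd ℂ) (W χ) = (Y.card : ℂ) * Nat.card C := by
    have hcol : ∑ χ : Cfsg.IrrCharacter G, W χ * (starRingEnd ℂ) (W χ) =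
        ∑ y ∈ Y, ∑ y' ∈ Y, ∑ χ : Cfsg.IrrCharacter G,
          (χ : G → ℂ) (J * y) * (starRingEnd ℂ) ((χ : G → ℂ) (J * y')) := by
      simp only [W, map_sum, Finset.sum_mul]
      rw [Finset.sum_comm]
      refine Finset.sum_congr rfl fun y _ => ?_
      rw [Finset.sum_comm]
      exact Finset.sum_congr rfl fun χ _ => Finset.mul_sum _ _ _
    have hpow : ∀ y ∈ Y, (J * y) ^ Nat.card (Cfsg.pPrimeCore 2 C) = J := by
      intro y hy
      obtain ⟨h1, h2⟩ := (Finset.mem_filter.mp hy).2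
      have hy0 : y ^ Nat.card (Cfsg.pPrimeCore 2 C) = 1 := by
        refine orderOf_dvd_iff_pow_eq_one.mp ?_
        have := Subgroup.orderOf_dvd_natCard _
          (hodd ⟨y, Subgroup.mem_centralizer_singleton_iff.mpr h1⟩ (by rw [Subgroup.orderOf_mk]; exact h2))
        rwa [Subgroup.orderOf_mk] at this
      obtain ⟨i, hi⟩ := Nat.coprime_two_right.mp (Cfsg.Lib.Solv.coprime_pPrimeCore (G := C) 2)
      rw [(show Commute J y from h1.symm).mul_pow, hy0, mul_one, hi, pow_succ, pow_mul,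
        show J ^ 2 = 1 by rw [← hJ2, pow_orderOf_eq_one], one_pow, one_mul]
    rw [hcol]
    have hcard : ∀ a b : G, ((Finset.univ.filter fun c : G => c * a * c⁻¹ = b).card : ℂ) =
        if IsConj a b then (Nat.card (Subgroup.centralizer ({b} : Set G)) : ℂ) else 0 := by
      intro a b
      split_ifs with hab
      · obtain ⟨c₀, hc₀⟩ := isConj_iff.mp hab
        congr 1
        rw [Nat.subtype_card (Finset.univ.filter fun s : G => s * b = b * s)
          (fun s => by simp [Subgroup.mem_centralizer_singleton_iff])]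
        refine (Finset.card_bij (fun s _ => s * c₀) (fun s hs => ?_) (fun _ _ _ _ h => mul_right_cancel h)
          (fun c hc => ?_)).symm
        · refine Finset.mem_filter.mpr ⟨Finset.mem_univ _, ?_⟩
          rw [mul_inv_rev, show s * c₀ * a * (c₀⁻¹ * s⁻¹) = s * (c₀ * a * c₀⁻¹) * s⁻¹ by group, hc₀,
            (Finset.mem_filter.mp hs).2, mul_inv_cancel_right]
        · refine ⟨c * c₀⁻¹, Finset.mem_filter.mpr ⟨Finset.mem_univ _, ?_⟩, by group⟩
          calc c * c₀⁻¹ * b = c * a * c₀⁻¹ := by rw [← hc₀]; group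
            _ = b * (c * c₀⁻¹) := by rw [← (Finset.mem_filter.mp hc).2]; group
      · rw [Finset.filter_eq_empty_iff.mpr fun c _ h => hab (isConj_iff.mpr ⟨c, h⟩)]
        simp
    simp only [Cfsg.Lib.Characters.column_orthogonality, ← hcard]
    push_cast
    rw [← nsmul_eq_mul, ← Finset.sum_const]
    refine Finset.sum_congr rfl fun y hy => ?_
    rw [← Nat.cast_sum]
    congr 1
    rw [Nat.subtype_card (Finset.univ.filter fun c : G => c * J = J * c)
      (fun c => by simp [C, Subgroup.mem_centralizer_singleton_iff]),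
      ← Finset.card_sigma]
    refine Finset.card_bij (fun q _ => q.2) ?_ ?_ ?_
    · rintro ⟨y', c⟩ hq
      obtain ⟨hy', hc⟩ := Finset.mem_sigma.mp hq
      have e := (Finset.mem_filter.mp hc).2
      refine Finset.mem_filter.mpr ⟨Finset.mem_univ _, mul_inv_eq_iff_eq_mul.mp ?_⟩
      have e2 := congrArg (· ^ Nat.card (Cfsg.pPrimeCore 2 C)) e
      simp only [conj_pow, hpow y hy, hpow y' hy'] at e2
      exact e2
    · rintro ⟨y₁, c⟩ h₁ ⟨y₂, c'⟩ h₂ hc
      simp only at hc
      subst hc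
      have e1 := (Finset.mem_filter.mp (Finset.mem_sigma.mp h₁).2).2
      have e2 := (Finset.mem_filter.mp (Finset.mem_sigma.mp h₂).2).2
      have e3 : J * y₁ = J * y₂ := e1.symm.trans e2
      rw [mul_left_cancel e3]
    · intro c hc
      obtain ⟨h1, h2⟩ := (Finset.mem_filter.mp hy).2
      have hcJ : c * J = J * c := (Finset.mem_filter.mp hc).2
      refine ⟨⟨c * y * c⁻¹, c⟩, Finset.mem_sigma.mpr ⟨Finset.mem_filter.mpr ⟨Finset.mem_univ _, ?_, ?_⟩,
        Finset.mem_filter.mpr ⟨Finset.mem_univ _, ?_⟩⟩, rfl⟩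
      · have hJc : c⁻¹ * J = J * c⁻¹ := (show Commute c J from hcJ).inv_left.eq
        calc c * y * c⁻¹ * J = c * y * (c⁻¹ * J) := by group
          _ = c * (y * J) * c⁻¹ := by rw [hJc]; group
          _ = c * J * y * c⁻¹ := by rw [h1]; group
          _ = J * (c * y * c⁻¹) := by rw [hcJ]; group
      · rw [Cfsg.Lib.ZStar.orderOf_conjugate']; exact h2
      · calc c * (J * y) * c⁻¹ = c * J * y * c⁻¹ := by group
          _ = J * (c * y * c⁻¹) := by rw [hcJ]; group
  have hW0 : ∀ χ : Cfsg.IrrCharacter G, χ ∉ B → W χ = 0 := by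
    intro χ hχ
    have hsq : ∀ ψ : Cfsg.IrrCharacter G, W ψ * (starRingEnd ℂ) (W ψ) = ((Complex.normSq (W ψ) : ℝ) : ℂ) :=
      fun ψ => Complex.mul_conj _
    have hBsum : ∑ ψ ∈ B, W ψ * (starRingEnd ℂ) (W ψ) = (Y.card : ℂ) * Nat.card C := by
      have hc : ∀ ψ ∈ B, W ψ * (starRingEnd ℂ) (W ψ) = (Y.card : ℂ) * Y.card := fun ψ hψ => by
        rw [hWB ψ hψ, map_mul, map_natCast, map_intCast, mul_mul_mul_comm, hbsq ψ hψ, mul_one]
      rw [Finset.sum_congr rfl hc, hsum, ← hYcard]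
      push_cast; ring
    have hrest : ∑ ψ ∈ Finset.univ \ B, (Complex.normSq (W ψ) : ℝ) = 0 := by
      have h := htot
      rw [← Finset.sum_sdiff (Finset.subset_univ B), hBsum, add_eq_right] at h
      simp only [hsq] at h
      exact_mod_cast h
    exact Complex.normSq_eq_zero.mp ((Finset.sum_eq_zero_iff_of_nonneg
      fun ψ _ => Complex.normSq_nonneg (W ψ)).mp hrest χ (by simp [hχ]))
  exact hW0 χ₀ (by simp [hBdef, hχ₀])

end Cfsg.Lib.ZStar
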