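import Mathlib
import Cfsg.Agent.Lib.ZStar.Q8Main
import Cfsg.Agent.Lib.ZStar.BrauerSuzuki

/-!
# The number of characters in the principal 2-block, quaternion Sylow subgroup of order 8
-/

set_option autoImplicit false
set_option linter.style.haveILetI false
set_option linter.unusedSectionVars false

namespace Cfsg.Lib.ZStar

open Cfsg.Lib.Characters Finset
open scoped ComplexConjugate Classical

universe u

variable {M : Ideal Cfsg.AlgInt}

theorem centralChar_comp_equiv {H K : Type u} [Group H] [Group K] (e : H ≃* K) (χ : K → ℂ) (h : H) :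
    Cfsg.centralChar (fun x => χ (e x)) h = Cfsg.centralChar χ (e h) := by
  have hidx : (Subgroup.centralizer ({h} : Set H)).index =
      (Subgroup.centralizer ({e h} : Set K)).index := by
    rw [← Subgroup.index_comap_of_surjective (f := e.toMonoidHom) _ e.surjective]
    congr 1
    ext a
    simp only [Subgroup.mem_comap, Subgroup.mem_centralizer_singleton_iff, MulEquiv.toMonoidHom_eq_coe,
      MonoidHom.coe_coe, ← map_mul, e.injective.eq_iff]
  rw [Cfsg.centralChar, Cfsg.centralChar, hidx, map_one]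

/-- Characters of the principal block transported along an isomorphism. -/
theorem comp_mem_principal_iff {H K : Type u} [Group H] [Group K] (e : H ≃* K)
    (χ : Cfsg.IrrCharacter K) :
    (⟨fun x => (χ : K → ℂ) (e x), isIrrCharacter_mulEquiv χ.2 e⟩ : Cfsg.IrrCharacter H) ∈
      Cfsg.principalBlock M H ↔ χ ∈ Cfsg.principalBlock M K := by
  have key : ∀ x : H, Cfsg.centralChar (fun _ : H => (1 : ℂ)) x =
      Cfsg.centralChar (fun _ : K => (1 : ℂ)) (e x) := fun x =>
    centralChar_comp_equiv e (fun _ : K => (1 : ℂ)) x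
  constructor
  · intro h g
    have := h (e.symm g)
    rwa [key, centralChar_comp_equiv e, e.apply_symm_apply] at this
  · intro h g
    have := h (e g)
    rwa [← key, ← centralChar_comp_equiv e] at this

theorem card_principalBlock_congr {H K : Type u} [Group H] [Group K] (e : H ≃* K) :
    Nat.card (Cfsg.principalBlock M H) = Nat.card (Cfsg.principalBlock M K) := by
  refine (Nat.card_congr (Equiv.subtypeEquiv
    { toFun := fun χ : Cfsg.IrrCharacter K =>
        (⟨fun x => (χ : K → ℂ) (e x), isIrrCharacter_mulEquiv χ.2 e⟩ : Cfsg.IrrCharacter H)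
      invFun := fun χ => ⟨fun x => (χ : H → ℂ) (e.symm x), isIrrCharacter_mulEquiv χ.2 e.symm⟩
      left_inv := fun χ => Subtype.ext (funext fun x => by simp)
      right_inv := fun χ => Subtype.ext (funext fun x => by simp) }
    fun χ => ?_)).symm
  exact (comp_mem_principal_iff e χ).symm

variable {G : Type u} [Group G] [Fintype G] {S : Sylow 2 G} {z : G}

/-- A character of the principal block changing sign under `z` vanishes off `⟨z⟩ × odd`. -/
theorem Q8Hyp.faithful_vanish (h : Q8Hyp S z) (hzc : z ∈ Subgroup.center G) (hF : BlockFacts G M)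
    (χ : Cfsg.IrrCharacter G) (hχ : χ ∈ Cfsg.principalBlock M G)
    (hs : ∀ g, (χ : G → ℂ) (z * g) = -(χ : G → ℂ) g) {g : G} (h1 : ¬ Odd (orderOf g))
    (h2 : ¬ Odd (orderOf (z * g))) : (χ : G → ℂ) g = 0 := by
  haveI : Fact (Nat.Prime 2) := ⟨Nat.prime_two⟩
  obtain ⟨w, hw⟩ := exists_isPPart g
  have hw1 : w ≠ 1 := fun e => h1 ((IsPPart.eq_one_iff hw).mp e)
  obtain ⟨v, rfl, hc, ⟨k, hk⟩, hv⟩ := hw
  have hvo : Odd (orderOf v) := Nat.odd_iff.mpr (Nat.two_dvd_ne_zero.mp hv)
  have hzz : z * z = 1 := by rw [← sq, ← h.ord, pow_orderOf_eq_one]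
  obtain ⟨a, ha⟩ := exists_conj_in_sylow S hk
  have hw'1 : a * w * a⁻¹ ≠ 1 := fun e => hw1 (conj_eq_one_iff.mp e)
  have hw'z : a * w * a⁻¹ ≠ z := by
    intro e
    have hwz : w = z := by
      calc w = a⁻¹ * (a * w * a⁻¹) * a := by group
        _ = a⁻¹ * z * a := by rw [e]
        _ = z := by rw [Subgroup.mem_center_iff.mp hzc a⁻¹, inv_mul_cancel_right]
    refine h2 ?_
    rw [hwz, ← mul_assoc, hzz, one_mul]
    exact hvo
  obtain ⟨h4, hsq⟩ := orderOf_eq_four S h.card h.notCyclic h.uniq ha hw'1 hw'z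
  obtain ⟨hidx, -⟩ := h.core_centralizer_four ha h4
  set w' := a * w * a⁻¹ with hw'def
  set v' := a * v * a⁻¹ with hv'def
  have hcomm : Commute w' v' := by
    show (MulAut.conj a w) * (MulAut.conj a v) = MulAut.conj a v * MulAut.conj a w
    rw [← map_mul, ← map_mul, hc.eq]
  have hvC : v' ∈ Subgroup.centralizer ({w'} : Set G) :=
    Subgroup.mem_centralizer_singleton_iff.mpr hcomm.eq.symm
  have hcore : v' ∈ Cfsg.centralizerPPrimeCore 2 w' := by
    refine ⟨⟨v', hvC⟩, ?_, rfl⟩
    set N := Cfsg.pPrimeCore 2 (Subgroup.centralizer ({w'} : Set G))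
    rw [SetLike.mem_coe]
    have hdv : orderOf ((⟨v', hvC⟩ : Subgroup.centralizer ({w'} : Set G)) : _ ⧸ N) ∣ 2 ^ 2 := by
      rw [← hidx]; exact orderOf_dvd_natCard _
    have hdv2 : orderOf ((⟨v', hvC⟩ : Subgroup.centralizer ({w'} : Set G)) : _ ⧸ N) ∣ orderOf v' :=
      (orderOf_map_dvd (QuotientGroup.mk' N) _).trans (by rw [Subgroup.orderOf_mk])
    rw [← QuotientGroup.eq_one_iff, ← orderOf_eq_one_iff]
    refine Nat.eq_one_of_dvd_coprimes ?_ hdv2 hdv
    refine Nat.Coprime.pow_right 2 (Nat.coprime_two_right.mpr ?_)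
    rw [hv'def, orderOf_conjugate]; exact hvo
  have hval : (χ : G → ℂ) (w' * v') = (χ : G → ℂ) w' := hF.coreInv w' ⟨2, by rw [h4]; norm_num⟩ v' hcore χ hχ
  have hg : (χ : G → ℂ) (w * v) = (χ : G → ℂ) (w' * v') := by
    rw [hw'def, hv'def, show a * w * a⁻¹ * (a * v * a⁻¹) = a * (w * v) * a⁻¹ by group]
    exact (χ.2.isClassFunction _ a).symm
  have hinv : w'⁻¹ = z * w' := by
    rw [inv_eq_iff_mul_eq_one, ← mul_assoc, Subgroup.mem_center_iff.mp hzc w', mul_assoc, ← sq w', hsq, hzz]
  have h0 : (χ : G → ℂ) w' = -(χ : G → ℂ) w' := by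
    conv_lhs => rw [(isClassFunction_iff_isConj.mp χ.2.isClassFunction _ _
      (isConj_inv S h.card h.notCyclic h.ord h.uniq ha h4)), hinv, hs]
  rw [hg, hval]
  linear_combination h0 / 2

/-- Summation over `Z × odd` and the rest. -/
theorem sum_split_zc (hz : orderOf z = 2) (f : Subgroup.centralizer ({z} : Set G) → ℂ)
    (hf : ∀ g, f (zc z * g) = f g) :
    ∑ g, f g = 2 * (∑ g ∈ univ.filter (fun g : Subgroup.centralizer ({z} : Set G) => Odd (orderOf g)), f g) +
      ∑ g ∈ univ.filter (fun g : Subgroup.centralizer ({z} : Set G) =>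
        ¬ Odd (orderOf g) ∧ ¬ Odd (orderOf (zc z * g))), f g := by
  simp only [Finset.sum_filter]
  have h1 : ∀ g, f g = (if Odd (orderOf g) then f g else 0) +
      ((if Odd (orderOf (zc z * g)) then f g else 0) +
        (if ¬ Odd (orderOf g) ∧ ¬ Odd (orderOf (zc z * g)) then f g else 0)) := by
    intro g
    by_cases h1 : Odd (orderOf g)
    · rw [if_pos h1, if_neg (not_odd_zc_mul z hz h1), if_neg (fun e => e.1 h1)]; simp
    · by_cases h2 : Odd (orderOf (zc z * g))
      · rw [if_neg h1, if_pos h2, if_neg (fun e => e.2 h2)]; simp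
      · rw [if_neg h1, if_neg h2, if_pos ⟨h1, h2⟩]; simp
  have h2 : ∑ g : Subgroup.centralizer ({z} : Set G), (if Odd (orderOf (zc z * g)) then f g else 0) =
      ∑ g : Subgroup.centralizer ({z} : Set G), (if Odd (orderOf g) then f g else 0) := by
    refine Fintype.sum_equiv (Equiv.mulLeft (zc z)) _ _ fun g => ?_
    simp only [Equiv.coe_mulLeft, hf]
  conv_lhs => rw [Finset.sum_congr rfl fun g _ => h1 g]
  rw [Finset.sum_add_distrib, Finset.sum_add_distrib, h2]
  ring

set_option maxHeartbeats 1000000 in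
/-- The principal block has 7 characters. -/
theorem Q8Hyp.card_principal (h : Q8Hyp S z) (hzc : z ∈ Subgroup.center G) (hM : Cfsg.IsPModular 2 M) :
    Nat.card (Cfsg.principalBlock M G) = 7 := by
  haveI : Fact (Nat.Prime 2) := ⟨Nat.prime_two⟩
  haveI := hM.2.1.isPrime
  have hz := h.ord
  set C := Subgroup.centralizer ({z} : Set G)
  have htop : Subgroup.centralizer ({z} : Set G) = ⊤ := eq_top_iff.mpr fun g _ =>
    Subgroup.mem_centralizer_singleton_iff.mpr (Subgroup.mem_center_iff.mp hzc g)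
  let e : Subgroup.centralizer ({z} : Set G) ≃* G :=
    (MulEquiv.subgroupCongr htop).trans Subgroup.topEquiv
  have hecoe : ∀ c, e c = (c : G) := fun c => rfl
  rw [← card_principalBlock_congr e]
  haveI := Fintype.ofFinite (CBar z)
  have hF := blockFacts G hM
  have hFC := blockFacts (Subgroup.centralizer ({z} : Set G)) hM
  have hFb := blockFacts (CBar z) hM
  obtain ⟨P, hP⟩ := h.cbar_klein
  obtain ⟨ζ₂, ζ₃, ζ₄, ε, hε, hn2, hn3, h23, h24, h34, hB0, hval, -, -, -, hrel⟩ :=
    klein_principal hM hFb P hP h.cbar_conj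
  have hn4 : (ζ₄ : CBar z → ℂ) ≠ fun _ => 1 := by
    intro e
    obtain ⟨⟨s, hsP⟩, hs⟩ : ∃ s : (P : Subgroup (CBar z)), s ≠ 1 := by
      haveI : Nontrivial (P : Subgroup (CBar z)) :=
        Finite.one_lt_card_iff_nontrivial.mp (by rw [hP.card_four]; norm_num)
      exact exists_ne 1
    have h1 := (hval s (orderOf_eq_prime (exponent_two_sylow P hP hsP)
      (fun e => hs (Subtype.ext e)))).2.2
    rw [e] at h1
    norm_num at h1
  let ζ : Fin 4 → Cfsg.IrrCharacter (CBar z) := ![triv (CBar z), ζ₂, ζ₃, ζ₄]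
  let b : Fin 4 → ℤ := ![1, 1, ε, -1]
  have hb2 : ∀ i, (b i : ℂ) * (b i : ℂ) = 1 := by
    intro i
    rcases hε with e | e <;> fin_cases i <;> simp [b, e]
  have hζ0 : ∀ χ : Cfsg.IrrCharacter (CBar z), (χ : CBar z → ℂ) ≠ (fun _ => 1) → χ ≠ triv (CBar z) :=
    fun χ hne e => hne (by rw [e]; rfl)
  have hζinj : Function.Injective ζ := by
    intro i j hij
    fin_cases i <;> fin_cases j <;>
      first
      | rfl
      | (exfalso; simp [ζ] at hij; first
          | exact hζ0 _ hn2 hij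
          | exact hζ0 _ hn3 hij
          | exact hζ0 _ hn4 hij
          | exact hζ0 _ hn2 hij.symm
          | exact hζ0 _ hn3 hij.symm
          | exact hζ0 _ hn4 hij.symm
          | exact h23 hij
          | exact h24 hij
          | exact h34 hij
          | exact h23 hij.symm
          | exact h24 hij.symm
          | exact h34 hij.symm)
  have hζmem : ∀ q : Cfsg.IrrCharacter (CBar z),
      q ∈ Cfsg.principalBlock M (CBar z) ↔ ∃ i, ζ i = q := by
    intro q
    rw [hB0, Set.mem_ofPred_eq]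
    constructor
    · rintro (e | rfl | rfl | rfl)
      · exact ⟨0, Subtype.ext (by simp only [ζ, Matrix.cons_val_zero]; exact e.symm)⟩
      · exact ⟨1, rfl⟩
      · exact ⟨2, rfl⟩
      · exact ⟨3, rfl⟩
    · rintro ⟨i, rfl⟩
      fin_cases i
      · exact Or.inl rfl
      · exact Or.inr (Or.inl rfl)
      · exact Or.inr (Or.inr (Or.inl rfl))
      · exact Or.inr (Or.inr (Or.inr rfl))
  set F := univ.filter (fun χ : Cfsg.IrrCharacter C => χ ∈ Cfsg.principalBlock M C)
  set I := (univ : Finset (Fin 4)).image fun i => infl z (ζ i)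
  have hIF : I ⊆ F := by
    intro χ hχ
    obtain ⟨i, -, rfl⟩ := Finset.mem_image.mp hχ
    exact Finset.mem_filter.mpr ⟨mem_univ _,
      (infl_mem_principal_iff z hM hFC hFb hz _).mpr ((hζmem _).mpr ⟨i, rfl⟩)⟩
  set J := F \ I
  have hIinj : Function.Injective fun i => infl z (ζ i) := (infl_injective z).comp hζinj
  have hcardF : Nat.card (Cfsg.principalBlock M C) = 4 + #J := by
    have h1 : Nat.card (Cfsg.principalBlock M C) = #F := Nat.subtype_card F fun χ => by simp [F]
    rw [h1, ← Finset.card_sdiff_add_card_eq_card hIF, Finset.card_image_of_injective _ hIinj,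
      Finset.card_univ, Fintype.card_fin, add_comm]
  -- the odd part and the singular part
  set R := univ.filter (fun g : C => Odd (orderOf g))
  set T := univ.filter (fun g : C => ¬ Odd (orderOf g) ∧ ¬ Odd (orderOf (zc z * g)))
  have hsing : ∀ i, ∀ g ∈ T, (infl z (ζ i) : C → ℂ) g = (b i : ℂ) := by
    intro i g hg
    have hg' : ¬ Odd (orderOf (g : CBar z)) := fun ho =>
      (odd_or_odd_of_mk z hz ho).elim (Finset.mem_filter.mp hg).2.1 (Finset.mem_filter.mp hg).2.2
    obtain ⟨s, hs, hgs⟩ := klein_value hFb P hP ((hζmem _).mpr ⟨i, rfl⟩) hg'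
    rw [infl_apply, hgs]
    fin_cases i
    · simp [ζ, b]
    · simpa [ζ, b] using (hval s hs).1
    · simpa [ζ, b] using (hval s hs).2.1
    · simpa [ζ, b] using (hval s hs).2.2
  have horthT : ∀ i, (2 : ℂ) * (∑ g ∈ R, (infl z (ζ i) : C → ℂ) g) + (b i : ℂ) * #T =
      if i = 0 then (Nat.card C : ℂ) else 0 := by
    intro i
    have e1 := sum_split_zc hz (fun g => (infl z (ζ i) : C → ℂ) g) (infl_zc_mul z (ζ i))
    rw [Finset.sum_congr rfl (hsing i), Finset.sum_const, nsmul_eq_mul, mul_comm (#T : ℂ)] at e1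
    rw [← e1]
    have e2 := classInner_irr (infl z (ζ i)).2 (infl z (ζ 0)).2
    simp only [Subtype.coe_inj, hIinj.eq_iff] at e2
    rw [Cfsg.classInner] at e2
    simp only [infl_apply, show ∀ q : CBar z, (ζ 0 : CBar z → ℂ) q = 1 from fun q => rfl, map_one,
      mul_one] at e2
    rw [inv_mul_eq_iff_eq_mul₀ (Nat.cast_ne_zero.mpr Nat.card_pos.ne')] at e2
    simp only [infl_apply]
    rw [e2]
    split_ifs <;> simp [C]
  have hT : (4 : ℂ) * #T = Nat.card C := by
    have e1 : ∀ g ∈ R, ∑ i, (b i : ℂ) * (infl z (ζ i) : C → ℂ) g = 0 := by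
      intro g hg
      have hr := hrel (g : CBar z) (odd_mk z (Finset.mem_filter.mp hg).2)
      simp only [Fin.sum_univ_four, infl_apply]
      simp only [ζ, b, Matrix.cons_val_zero, Matrix.cons_val_one, Matrix.cons_val]
      rw [triv_apply]
      push_cast
      linear_combination hr
    have e2 := Finset.sum_congr rfl (s₁ := (univ : Finset (Fin 4)))
      (fun i _ => congrArg ((b i : ℂ) * ·) (horthT i))
    simp only [mul_add, ← mul_assoc, hb2, one_mul, Finset.sum_add_distrib] at e2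
    simp only [mul_assoc, mul_left_comm _ (2 : ℂ), ← Finset.mul_sum] at e2
    rw [Finset.sum_congr rfl (fun i _ => Finset.mul_sum R (fun g => (infl z (ζ i) : C → ℂ) g) (b i : ℂ)),
      Finset.sum_comm, Finset.sum_eq_zero e1] at e2
    simpa [b] using e2
  -- norms
  have hnorm : ∀ χ : Cfsg.IrrCharacter C, (Nat.card C : ℂ) = ∑ g, (χ : C → ℂ) g * conj ((χ : C → ℂ) g) := by
    intro χ
    have e1 := classInner_irr_self χ.2
    rw [Cfsg.classInner, inv_mul_eq_iff_eq_mul₀ (Nat.cast_ne_zero.mpr Nat.card_pos.ne'), mul_one] at e1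
    exact e1.symm
  have hnI : ∀ χ ∈ I, 2 * (∑ g ∈ R, (χ : C → ℂ) g * conj ((χ : C → ℂ) g)) = (Nat.card C : ℂ) - #T := by
    intro χ hχ
    obtain ⟨i, -, rfl⟩ := Finset.mem_image.mp hχ
    rw [hnorm (infl z (ζ i)), sum_split_zc hz _ (fun g => by rw [infl_zc_mul]),
      Finset.sum_congr (s₁ := T) rfl (fun g hg => by rw [hsing i g hg, map_intCast, hb2]),
      Finset.sum_const, nsmul_eq_mul, mul_one, add_sub_cancel_right]
  have hneg : ∀ χ ∈ J, ∀ g, (χ : C → ℂ) (zc z * g) = -(χ : C → ℂ) g := by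
    intro χ hχ
    obtain ⟨hχF, hχI⟩ := Finset.mem_sdiff.mp hχ
    refine (infl_or_neg z hz χ).resolve_left ?_
    rintro ⟨q, rfl⟩
    obtain ⟨i, rfl⟩ := (hζmem q).mp ((infl_mem_principal_iff z hM hFC hFb hz q).mp (Finset.mem_filter.mp hχF).2)
    exact hχI (Finset.mem_image.mpr ⟨i, mem_univ _, rfl⟩)
  have hnJ : ∀ χ ∈ J, 2 * (∑ g ∈ R, (χ : C → ℂ) g * conj ((χ : C → ℂ) g)) = (Nat.card C : ℂ) := by
    intro χ hχ
    rw [hnorm χ, sum_split_zc hz _ (fun g => by rw [hneg χ hχ g, map_neg, neg_mul_neg]),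
      Finset.sum_eq_zero (s := T) fun g hg => ?_, add_zero]
    suffices h0 : (χ : C → ℂ) g = 0 by rw [h0, zero_mul]
    obtain ⟨hg1, hg2⟩ := (Finset.mem_filter.mp hg).2
    set χ' : Cfsg.IrrCharacter G := ⟨fun x => (χ : C → ℂ) (e.symm x), isIrrCharacter_mulEquiv χ.2 e.symm⟩
    have hz' : e.symm z = zc z := (MulEquiv.symm_apply_eq e).mpr rfl
    have hv := h.faithful_vanish hzc hF χ'
      ((comp_mem_principal_iff e.symm χ).mpr (Finset.mem_filter.mp (Finset.mem_sdiff.mp hχ).1).2)
      (fun x => by show (χ : C → ℂ) (e.symm (z * x)) = _; rw [map_mul, hz', hneg χ hχ]) (g := e g)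
      (by rw [MulEquiv.orderOf_eq]; exact hg1)
      (by rw [show z * e g = e (zc z * g) from rfl, MulEquiv.orderOf_eq]; exact hg2)
    rwa [show (χ' : G → ℂ) (e g) = (χ : C → ℂ) g from congrArg (χ : C → ℂ) (e.symm_apply_apply g)] at hv
  -- orthogonality between the two sections
  have hIJ : ∀ g ∈ R, ∑ χ ∈ I, (χ : C → ℂ) g * conj ((χ : C → ℂ) g) =
      ∑ χ ∈ J, (χ : C → ℂ) g * conj ((χ : C → ℂ) g) := by
    intro g hg
    have hgo : ¬ 2 ∣ orderOf g := Nat.two_dvd_ne_zero.mpr (Nat.odd_iff.mp (Finset.mem_filter.mp hg).2)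
    have hzne : (1 : C) ≠ zc z := fun e => by
      have := congrArg orderOf e
      rw [orderOf_one, orderOf_zc, hz] at this
      norm_num at this
    have e1 := hFC.orth g (zc z * g) 1 (zc z) (isPPart_one hgo)
      ⟨g, rfl, (Subgroup.mem_center_iff.mp (zc_mem_center z) g).symm,
        ⟨1, by rw [orderOf_zc, hz, pow_one]⟩, hgo⟩
      (fun e => hzne (isConj_one_right.mp e).symm) _ (isPBlock_principal M)
    rw [← Cfsg.Lib.Blocks.kerB_eq_finsum, Cfsg.Lib.Blocks.kerB_eq_filter, ← Finset.sum_sdiff hIF] at e1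
    rw [← sub_eq_zero, ← e1, add_comm, sub_eq_add_neg, ← Finset.sum_neg_distrib]
    congr 1
    · refine Finset.sum_congr rfl fun χ hχ => ?_
      obtain ⟨i, -, rfl⟩ := Finset.mem_image.mp hχ
      rw [char_inv_eq_conj (infl z (ζ i)).2.isCharacter, infl_zc_mul]
    · refine Finset.sum_congr rfl fun χ hχ => ?_
      rw [char_inv_eq_conj χ.2.isCharacter, hneg χ hχ, map_neg, mul_neg]
  have hJ : (#J : ℂ) * Nat.card C = 3 * Nat.card C := by
    calc (#J : ℂ) * Nat.card C = ∑ χ ∈ J, 2 * ∑ g ∈ R, (χ : C → ℂ) g * conj ((χ : C → ℂ) g) := by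
          rw [Finset.sum_congr rfl hnJ, Finset.sum_const, nsmul_eq_mul]
      _ = ∑ χ ∈ I, 2 * ∑ g ∈ R, (χ : C → ℂ) g * conj ((χ : C → ℂ) g) := by
          simp only [← Finset.mul_sum]
          rw [Finset.sum_comm, ← Finset.sum_congr rfl hIJ, Finset.sum_comm]
      _ = 3 * Nat.card C := by
          rw [Finset.sum_congr rfl hnI, Finset.sum_const, Finset.card_image_of_injective _ hIinj,
            Finset.card_univ, Fintype.card_fin, nsmul_eq_mul]
          push_cast
          linear_combination -hT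
  have hJ3 : #J = 3 := by exact_mod_cast mul_right_cancel₀ (Nat.cast_ne_zero.mpr Nat.card_pos.ne') hJ
  rw [hcardF, hJ3]

end Cfsg.Lib.ZStar
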